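import Cfsg.Agent.Block.Sub
import Cfsg.Agent.BlockB.Column

/-!
# Alternating sums over chains of `p`-subgroups
-/

namespace CF.Block

open Cfsg MonoidAlgebra Subgroup Module
open CF.BlockB (v O k resC nrm omega eSet ev incl pPart pReg Cen sec regProj cm InSpan PV Γ)
open scoped ComplexConjugate

variable {p : ℕ} {M : Ideal AlgInt} {G : Type*} [Group G] [Finite G]

theorem blockPart_mul_eq (hM : IsPModular p M) {x : G} (hx : ∃ k : ℕ, orderOf x = p ^ k)
    {A : Set (IrrCharacter G)} (hA : nrm M (eSet A) ≤ 1) {A' : Set (IrrCharacter (Cen x))}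
    (hA' : nrm M (eSet A') ≤ 1) (h : nrm M (BlockB.trunc (Cen x) (eSet A) - eSet A') < 1)
    {θ : G → ℂ} (hθ : IsClassFunction G θ) {y : Cen x} (hy : ¬ p ∣ orderOf y) :
    blockPart A θ (x * y) = blockPart A' (sec (Cen x) x θ) y := by
  classical
  have := Fintype.ofFinite G
  have h1 : pPart p (((⟨x, BlockB.self_mem_Cen x⟩ * y : Cen x)) : G) = x :=
    BlockB.pPart_mul_of_commute hM.1 (BlockB.commute_of_mem_Cen y) hx (by rwa [orderOf_coe])
  have h2 : ∀ ξ : IrrCharacter (Cen x), v M (omega (ξ : Cen x → ℂ) (BlockB.trunc (Cen x) (eSet A))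
      - omega (ξ : Cen x → ℂ) (eSet A')) < 1 := fun ξ => by
    rw [← map_sub]
    exact (BlockB.v_omega_le ξ.2 (sub_mem (BlockB.trunc_mem_Z _ (BlockB.eSet_mem_Z A))
      (BlockB.eSet_mem_Z A'))).trans_lt h
  have h3 : ∀ {B : Set (IrrCharacter G)} {b : Set (IrrCharacter (Cen x))}, nrm M (eSet B) ≤ 1 →
      nrm M (eSet b) ≤ 1 →
      (∀ ξ ∈ b, v M (omega (ξ : Cen x → ℂ) (BlockB.trunc (Cen x) (eSet B))) < 1) →
      ∀ χ ∈ B, blockPart b (fun c : Cen x => (χ : G → ℂ) (x * c)) y = 0 := fun hB hb h3 χ hχ => by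
    have h4 := BlockB.second_main_core hM hb hB h3 (⟨x, BlockB.self_mem_Cen x⟩ * y)
      (by rw [h1]) hχ
    rw [BlockB.blockPart_sec_eq (Char.irr_isClassFunction χ.2) le_rfl]
    exact h4
  conv_rhs => rw [Char.classFun_eq_sum hθ, ← BlockB.secL_apply, ← BlockB.blockPartL_apply,
    map_sum, map_sum]
  rw [BlockB.blockPart_eq, Finset.sum_apply, Finset.sum_filter]
  refine Finset.sum_congr rfl fun χ _ => ?_
  rw [map_smul, map_smul, Pi.smul_apply, smul_eq_mul, BlockB.blockPartL_apply, BlockB.secL_apply]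
  split_ifs with hχ
  · have h4 := congrFun (BlockB.blockPart_add_compl A'
      (BlockB.sec_classFun (Char.irr_isClassFunction χ.2) (le_refl (Cen x)))) y
    have h5 := h3 hA (BlockB.nrm_eSet_compl hA') (fun ξ hξ => by
      simpa [BlockB.omega_eSet_of_notMem hξ] using h2 ξ) χ hχ
    exact congrArg _ (h4.symm.trans ((congrArg (_ + ·) h5).trans (add_zero _)))
  · refine (mul_eq_zero_of_right _ (h3 (BlockB.nrm_eSet_compl hA) hA' (fun ξ hξ => ?_) χ hχ)).symm
    have h4 := h2 ξ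
    rw [BlockB.omega_eSet_of_mem hξ, Valuation.map_sub_swap] at h4
    have h5 : BlockB.trunc (Cen x) (1 : ℂ[G]) = 1 := by
      rw [← map_one (incl (Cen x)), BlockB.trunc_incl]
    rw [BlockB.eSet_compl, (BlockB.trunc (Cen x)).map_sub, (omega _).map_sub, h5,
      BlockB.omega_one (Char.irr_one_ne_zero ξ.2)]
    exact h4

/-- A multiple of the characteristic function of a conjugacy class. -/
noncomputable def colF (g : G) : G → ℂ := fun x =>
  ∑ χ : IrrCharacter G, (χ : G → ℂ) x * conj ((χ : G → ℂ) g)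

theorem colF_eq (g : G) : colF g = ∑ χ : IrrCharacter G, conj ((χ : G → ℂ) g) • (χ : G → ℂ) := by
  ext x
  simp [colF, mul_comm]

theorem colF_classFun (g : G) : IsClassFunction G (colF g) := fun a b =>
  Finset.sum_congr rfl fun χ _ => by rw [Char.irr_isClassFunction χ.2]

/-- The sum of the squared absolute values of the characters in `A`. -/
noncomputable def thc (A : Set (IrrCharacter G)) (g : G) : ℂ := blockPart A (colF g) g

theorem thc_eq (A : Set (IrrCharacter G)) [DecidablePred (· ∈ A)] (g : G) :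
    thc A g = ∑ χ with χ ∈ A, (χ : G → ℂ) g * conj ((χ : G → ℂ) g) := by
  classical
  have := Fintype.ofFinite G
  rw [thc, BlockB.blockPart_eq]
  refine Finset.sum_congr rfl fun χ _ => ?_
  rw [mul_comm, colF_eq, Char.inner_sum_irr_left]

theorem colF_mul (hp : p.Prime) {x : G} (hx : ∃ k : ℕ, orderOf x = p ^ k) {y z : Cen x}
    (hy : ¬ p ∣ orderOf y) (hz : ¬ p ∣ orderOf z) : colF (x * y) (x * z) = colF y z := by
  classical
  have hy' : ¬ p ∣ orderOf (y : G) := by rwa [orderOf_coe]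
  have hz' : ¬ p ∣ orderOf (z : G) := by rwa [orderOf_coe]
  rw [colF, colF, Char.sum_irr_mul_conj, Char.sum_irr_mul_conj]
  refine if_congr ⟨fun h => ?_, fun h => ?_⟩ ?_ rfl
  · obtain ⟨c, hc⟩ := isConj_iff.1 h
    have h1 := congrArg (pPart p) hc
    rw [BlockB.pPart_conj, BlockB.pPart_mul_of_commute hp (BlockB.commute_of_mem_Cen z) hx hz',
      BlockB.pPart_mul_of_commute hp (BlockB.commute_of_mem_Cen y) hx hy'] at h1
    refine isConj_iff.2 ⟨⟨c, BlockB.mem_Cen.2 (mul_inv_eq_iff_eq_mul.1 h1)⟩,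
      Subtype.ext (mul_left_cancel (a := x) (Eq.trans ?_ hc))⟩
    conv_lhs => enter [1]; rw [← h1]
    simp [mul_assoc]
  · obtain ⟨c, rfl⟩ := isConj_iff.1 h
    refine isConj_iff.2 ⟨c, ?_⟩
    simp [← mul_assoc, BlockB.mem_Cen.1 c.2]
  · have h1 := BlockB.cen_mul_eq hp (BlockB.commute_of_mem_Cen z) hx hz'
    rw [show centralizer {x * (z : G)} = _ from h1, ← card_map_of_injective (Cen x).subtype_injective,
      inf_comm, ← subgroupOf_map_subtype]
    congr 3
    ext c
    simp [mem_centralizer_singleton_iff, mem_subgroupOf, Subtype.ext_iff]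

theorem thc_mul (hM : IsPModular p M) {x : G} (hx : ∃ k : ℕ, orderOf x = p ^ k)
    {A : Set (IrrCharacter G)} (hA : nrm M (eSet A) ≤ 1) {A' : Set (IrrCharacter (Cen x))}
    (hA' : nrm M (eSet A') ≤ 1) (h : nrm M (BlockB.trunc (Cen x) (eSet A) - eSet A') < 1)
    {y : Cen x} (hy : ¬ p ∣ orderOf y) : thc A (x * y) = thc A' y := by
  rw [thc, blockPart_mul_eq hM hx hA hA' h (colF_classFun _) hy, thc, ← sub_eq_zero,
    ← Pi.sub_apply, ← BlockB.blockPartL_apply, ← BlockB.blockPartL_apply, ← map_sub]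
  refine BlockB.blockPart_eq_zero hM hA' fun z hz => sub_eq_zero.2 (colF_mul hM.1 hx hy ?_)
  rwa [BlockB.pPart_of_pRegular hM.1 hy, isConj_one_right, BlockB.pPart_eq_one_iff hM.1] at hz

theorem card_mul_sub_eq (hM : IsPModular p M) [Fintype G] {A : Set (IrrCharacter G)}
    (hA : nrm M (eSet A) ≤ 1) : (Nat.card G : ℂ) * ((Nat.card A : ℂ) - blockRank p A) =
      ∑ g with p ∣ orderOf g, thc A g := by
  classical
  simp only [thc_eq]
  rw [BlockB.blockRank_eq_sum hM hA, Finset.sum_comm, Nat.card_eq_fintype_card (α := A),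
    Fintype.card_subtype, Finset.card_eq_sum_ones, Nat.cast_sum, ← Finset.sum_sub_distrib,
    Finset.mul_sum]
  refine Finset.sum_congr rfl fun χ _ => ?_
  rw [Nat.cast_one, ← Char.inner_irr_self χ.2, ← Char.inner_sub_left, classInner, ← mul_assoc,
    mul_inv_cancel₀ (by exact_mod_cast Nat.card_pos.ne'), one_mul, Finset.sum_filter]
  refine Finset.sum_congr rfl fun g _ => ?_
  by_cases h : p ∣ orderOf g <;> simp [pRegularPart, IsPRegular, h]

/-- The trace of the conjugation by `g` on `ℂ K E`. -/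
noncomputable def Th (K : Subgroup G) (E : ℂ[G]) (g : G) : ℂ :=
  ∑ᶠ x : K, E.coeff (x * g * (x : G)⁻¹ * g⁻¹)

theorem Th_map {H : Type*} [Group H] [Finite H] {f : H →* G} (hf : Function.Injective f)
    (A : Set (IrrCharacter H)) (g : H) : Th f.range (gmap f (eSet A)) (f g) = thc A g := by
  classical
  have := Fintype.ofFinite H
  rw [Th, ← finsum_comp_equiv (MonoidHom.ofInjective hf).toEquiv, finsum_eq_sum_of_fintype, thc_eq,
    Finset.sum_congr rfl (g := fun x => blockCoeff A (x * g * x⁻¹ * g⁻¹)) fun x _ => by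
      rw [← BlockB.coeff_eSet, ← coeff_gmap hf]; simp [MonoidHom.ofInjective_apply]]
  simp only [BlockB.blockCoeff_eq]
  rw [← Finset.mul_sum, Finset.sum_comm, Finset.mul_sum]
  refine Finset.sum_congr rfl fun χ _ => ?_
  have h1 := Char.irr_one_ne_zero χ.2
  have h2 : (Nat.card H : ℂ) ≠ 0 := by exact_mod_cast Nat.card_pos.ne'
  rw [← Finset.mul_sum, ← map_sum, Char.sum_irr_conj_mul χ.2, Char.irr_inv χ.2,
    ← BlockB.irr_charDegree_eq] at *
  simp only [map_div₀, map_mul, map_natCast, Complex.conj_conj]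
  field_simp

/-- The lift of a central idempotent. -/
noncomputable def idl (M : Ideal AlgInt) (K : Subgroup G) (a : (k M)[G]) : ℂ[G] :=
  Classical.epsilon fun E => E ∈ Zc ℂ K ∧ E * E = E ∧ nrm M E ≤ 1 ∧ red M E = a

theorem idl_red {K : Subgroup G} {E : ℂ[G]} (h1 : E ∈ Zc ℂ K) (h2 : E * E = E)
    (h3 : nrm M E ≤ 1) : idl M K (red M E) = E := by
  obtain ⟨h4, h5, h6, h7⟩ := Classical.epsilon_spec (p := fun F => F ∈ Zc ℂ K ∧ F * F = F ∧
    nrm M F ≤ 1 ∧ red M F = red M E) ⟨E, h1, h2, h3, rfl⟩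
  exact eq_of_red_eq_of_idem h5 h2 (Zc_comm h4 h1.1) h6 h3 h7

theorem thc_eq_Th (hM : IsPModular p M) {H : Type*} [Group H] [Finite H] {f : H →* G}
    (hf : Function.Injective f) {A : Set (IrrCharacter H)} (hA : nrm M (eSet A) ≤ 1) (g : H) :
    thc A g = Th (f.range ⊓ Cen (pPart p (f g))) (idl M (f.range ⊓ Cen (pPart p (f g)))
      (Br (zpowers (pPart p (f g))) (gmap f (eb M A)))) (pReg p (f g)) := by
  have := Fact.mk hM.1
  have := BlockB.charP_k hM
  have hx := BlockB.pPart_pElement hM.1 g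
  have h0 := BlockB.isPGroup_zpowers hx
  rw [← BlockB.map_pPart hM.1, ← BlockB.map_pReg hM.1]
  set x := pPart p g
  have h1 : centralizer (zpowers x : Set H) = Cen x := by rw [zpowers_eq_closure, centralizer_closure]
  obtain ⟨A', h2, h3, -⟩ := exists_idem_lift hM (K := Cen x) (a := Br (zpowers x) (eb M A))
    ((BlockB.brSetup_Cen hx).Br_mem (eb_mem_Zc A)) (Br_idem h0 (fix_anti le_top (eb_mem_Zc A).2)
      (by rw [← red_eSet, ← red_mul hA hA, BlockB.eSet_mul_self]))
  have h4 : (f.comp (Cen x).subtype).range = f.range ⊓ Cen (f x) := by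
    ext y
    refine ⟨fun ⟨c, hc⟩ => hc ▸ ⟨⟨c, rfl⟩, BlockB.mem_Cen.2 (by
      simp [← map_mul, BlockB.mem_Cen.1 c.2])⟩, fun ⟨⟨c, hc⟩, h4⟩ => ⟨⟨c, BlockB.mem_Cen.2 (hf ?_)⟩,
        hc⟩⟩
    rw [map_mul, map_mul, hc, BlockB.mem_Cen.1 h4]
  have h5 := hf.comp (Cen x).subtype_injective
  have h6 := nrm_eS (M := M) _ A' ▸ h2
  rw [← MonoidHom.map_zpowers, ← gmap_Br hf, ← h3, ← red_gmap hf, eS, gmap_gmap, ← h4,
    idl_red (by rw [MonoidHom.range_eq_map]; exact gmap_mem_Zc _ (eSet_mem_Zc A'))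
      (by rw [← map_mul, BlockB.eSet_mul_self]) ((nrm_gmap_le _ _).trans h6)]
  refine Eq.trans ?_ (Th_map (f := f.comp (Cen x).subtype) h5 A'
    ⟨pReg p g, BlockB.mem_Cen.2 (BlockB.commute_pPart_pReg g).symm⟩).symm
  rw [← thc_mul hM hx hA h6 _ (by rw [← orderOf_coe]; exact BlockB.pReg_pRegular hM.1 g),
    BlockB.pPart_mul_pReg]
  rw [← red_eq_zero_iff (BlockB.nrm_sub_le_of_le ((BlockB.nrm_trunc_le _ _).trans hA) h6),
    red_sub ((BlockB.nrm_trunc_le _ _).trans hA) h6, sub_eq_zero]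
  refine ga_ext fun c => ?_
  have h7 := congrArg (fun a => a.coeff c) h3
  simp only [coeff_red, coeff_eS_coe] at h7
  rw [coeff_Br_of_mem _ (h1.ge c.2)] at h7
  rw [coeff_red, coeff_red, BlockB.coeff_trunc, BlockB.coeff_eSet A', h7]
  rfl

theorem ebs_indSet (hM : IsPModular p M) {T H : Subgroup G} (h : BrSetup p T H ⊤)
    {B : Set (IrrCharacter G)} (hB : IsPBlock M B) :
    ebs M H (BlockB.indSet M H B) = Br T (eb M B) := by
  have := Fact.mk hM.1
  have := BlockB.charP_k hM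
  obtain ⟨A, -, h2, h3⟩ := exists_idem_lift hM (h.Br_mem (eb_mem_Zc B))
    (Br_idem h.isP (fix_anti le_top (eb_mem_Zc B).2) (eb_mul_self hM hB))
  rw [← h2, red_eS]
  congr 1
  ext ξ
  have h4 := BlockB.isPBlock_blockOf (M := M) ξ
  rw [h3, ← h.induces_iff_ne (isBlk_ebs hM h4) (isBlk_eb hM hB), ← isInducedBlock_iff hM h4 hB]
  rfl

section Chain

open scoped Classical

variable {s : Finset (Subgroup G)} {u : G} {Q : Subgroup G}

variable (p) in
/-- A normal chain of nontrivial `p`-subgroups. -/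
structure NChain (s : Finset (Subgroup G)) : Prop where
  tot : ∀ Q ∈ s, ∀ R ∈ s, Q ≤ R ∨ R ≤ Q
  pgrp : ∀ Q ∈ s, Q ≠ ⊥ ∧ IsPGroup p Q
  norm : ∀ Q ∈ s, ∀ R ∈ s, R ≤ normalizer (Q : Set G)

/-- The stabilizer of a chain. -/
def chN (s : Finset (Subgroup G)) : Subgroup G := ⨅ Q ∈ s, normalizer (Q : Set G)

/-- The top of a chain together with `u`. -/
def chT (s : Finset (Subgroup G)) (u : G) : Subgroup G := zpowers u ⊔ s.sup id

/-- The subgroup that is inserted into or removed from a chain. -/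
noncomputable def chR (s : Finset (Subgroup G)) (u : G) : Subgroup G :=
  (s.filter (u ∉ ·)).sup id ⊔ closure (ccl (chT s u) u)

omit [Finite G]

theorem mem_chN {g : G} : g ∈ chN s ↔ ∀ Q ∈ s, g ∈ normalizer (Q : Set G) := by simp [chN]

theorem NChain.mono {t : Finset (Subgroup G)} (h : NChain p s) (ht : t ⊆ s) : NChain p t :=
  ⟨fun Q hQ R hR => h.tot Q (ht hQ) R (ht hR), fun Q hQ => h.pgrp Q (ht hQ),
    fun Q hQ R hR => h.norm Q (ht hQ) R (ht hR)⟩

theorem NChain.sup_induction (h : NChain p s) {C : Subgroup G → Prop} (h0 : C ⊥)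
    (h1 : ∀ Q ∈ s, C Q) : C (s.sup id) := by
  refine (Finset.sup_induction (p := fun Q => Q = ⊥ ∨ Q ∈ s) (.inl rfl) ?_
    fun _ => .inr).elim (· ▸ h0) (h1 _)
  rintro Q (rfl | hQ) R hR
  · rwa [bot_sup_eq]
  rcases hR with rfl | hR
  · exact .inr (by rwa [sup_bot_eq])
  rcases h.tot Q hQ R hR with h2 | h2
  · exact .inr (by rwa [sup_eq_right.2 h2])
  · exact .inr (by rwa [sup_eq_left.2 h2])

theorem NChain.sup_le_chN (h : NChain p s) : s.sup id ≤ chN s :=
  Finset.sup_le fun R hR _ hg => mem_chN.2 fun Q hQ => h.norm Q hQ R hR hg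

theorem chN_le_normalizer_sup {t : Finset (Subgroup G)} (ht : t ⊆ s) :
    chN s ≤ normalizer ((t.sup id : Subgroup G) : Set G) := fun g hg =>
  Finset.sup_induction (p := fun Q : Subgroup G => g ∈ normalizer (Q : Set G))
    (le_normalizer_of_normal' ⊤ ⊥ (mem_top g)) (fun Q hQ R hR => normalizer_inf_le_normalizer_sup Q R ⟨hQ, hR⟩)
    fun Q hQ => mem_chN.1 hg Q (ht hQ)

theorem NChain.brSetup (h : NChain p s) : BrSetup p (s.sup id) (chN s) ⊤ :=
  .of_le (h.sup_induction IsPGroup.of_bot fun Q hQ => (h.pgrp Q hQ).2) h.sup_le_chN le_top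
    (fun _ hg => mem_chN.2 fun _ hQ => centralizer_le_normalizer' _
      (centralizer_anti (Finset.le_sup (f := id) hQ) hg.1)) (chN_le_normalizer_sup le_rfl)

theorem mem_chT : u ∈ chT s u := mem_sup_left (mem_zpowers u)

theorem mem_chR : u ∈ chR s u := mem_sup_right (subset_closure (self_mem_ccl _ u))

theorem chR_le_chT : chR s u ≤ chT s u :=
  sup_le ((Finset.sup_mono (Finset.filter_subset _ _)).trans le_sup_right)
    ((closure_le _).2 fun _ hx => mem_of_mem_ccl le_normalizer mem_chT hx)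

theorem NChain.chT_le (h : NChain p s) (hu : u ∈ chN s) : chT s u ≤ chN s :=
  sup_le (zpowers_le.2 hu) h.sup_le_chN

theorem le_chR (hQ : Q ∈ s) (h : u ∉ Q) : Q ≤ chR s u :=
  (Finset.le_sup (f := id) (Finset.mem_filter.2 ⟨hQ, h⟩)).trans le_sup_left

theorem NChain.chR_le (h : NChain p s) (hu : u ∈ chN s) (hQ : Q ∈ s) (h1 : u ∈ Q) :
    chR s u ≤ Q := by
  refine sup_le (Finset.sup_le fun R hR => ?_) ((closure_le _).2 fun x hx =>
    mem_of_mem_ccl (fun g hg => mem_chN.1 (h.chT_le hu hg) Q hQ) h1 hx)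
  obtain ⟨h2, h3⟩ := Finset.mem_filter.1 hR
  exact (h.tot R h2 Q hQ).resolve_right fun h4 => h3 (h4 h1)

variable [Finite G]

theorem mem_normalizer_chR {g : G} (h1 : g ∈ chN s)
    (h2 : ∀ x ∈ ccl (chT s u) u, g * x * g⁻¹ ∈ ccl (chT s u) u) :
    g ∈ normalizer (chR s u : Set G) := by
  refine normalizer_inf_le_normalizer_sup _ _ ⟨chN_le_normalizer_sup (Finset.filter_subset _ _) h1,
    mem_normalizer_iff_cjs.2 (eq_of_le_of_card_le ?_ (card_cjs _ _).ge)⟩
  rw [cjs, MonoidHom.map_closure]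
  exact closure_mono (by rintro _ ⟨x, hx, rfl⟩; exact h2 x hx)

theorem NChain.chT_le_normalizer (h : NChain p s) (hu : u ∈ chN s) :
    chT s u ≤ normalizer (chR s u : Set G) := fun _ hg =>
  mem_normalizer_chR (h.chT_le hu hg) fun _ hx => (conj_mem_ccl_iff hg).2 hx

theorem inf_le_normalizer_chR : chN s ⊓ Cen u ≤ normalizer (chR s u : Set G) := fun g hg => by
  have h1 : g ∈ normalizer (chT s u : Set G) := normalizer_inf_le_normalizer_sup _ _
    ⟨centralizer_le_normalizer' _ (by rw [zpowers_eq_closure, centralizer_closure]; exact hg.2),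
      chN_le_normalizer_sup le_rfl hg.1⟩
  refine mem_normalizer_chR hg.1 ?_
  rintro _ ⟨t, ht, rfl⟩
  refine ⟨_, conj_mem_of_mem_normalizer h1 ht, ?_⟩
  conv_lhs => rw [← mul_inv_eq_iff_eq_mul.2 (BlockB.mem_Cen.1 hg.2)]
  group

omit [Finite G] in
theorem NChain.isPGroup_chT (h : NChain p s) (hu : u ∈ chN s) (h1 : ∃ k, orderOf u = p ^ k) :
    IsPGroup p (chT s u) :=
  isPGroup_sup_of_le_normalizer h.brSetup.isP (BlockB.isPGroup_zpowers h1)
    ((zpowers_le.2 hu).trans h.brSetup.norm)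

theorem NChain.insert (h : NChain p s) (hu : u ∈ chN s) (h1 : ∃ k, orderOf u = p ^ k)
    (h2 : u ≠ 1) : NChain p (insert (chR s u) s) := by
  have h3 : ∀ Q ∈ s, Q ≤ chR s u ∨ chR s u ≤ Q := fun Q hQ =>
    (em (u ∈ Q)).symm.imp (le_chR hQ) (h.chR_le hu hQ)
  refine ⟨?_, ?_, ?_⟩ <;> simp only [Finset.forall_mem_insert]
  · exact ⟨⟨.inl le_rfl, fun Q hQ => (h3 Q hQ).symm⟩, fun Q hQ => ⟨h3 Q hQ, h.tot Q hQ⟩⟩
  · exact ⟨⟨fun h4 => h2 (mem_bot.1 (h4 ▸ mem_chR)), (h.isPGroup_chT hu h1).to_le chR_le_chT⟩,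
      h.pgrp⟩
  · exact ⟨⟨le_normalizer, fun Q hQ => ((Finset.le_sup (f := id) hQ).trans le_sup_right).trans
      (h.chT_le_normalizer hu)⟩, fun Q hQ => ⟨fun g hg => mem_chN.1 (h.chT_le hu (chR_le_chT hg))
        Q hQ, h.norm Q hQ⟩⟩

omit [Finite G] in
theorem chT_insert : chT (insert (chR s u) s) u = chT s u := by
  rw [chT, Finset.sup_insert, sup_left_comm]
  exact sup_eq_right.2 chR_le_chT

omit [Finite G] in
theorem chR_insert : chR (insert (chR s u) s) u = chR s u := by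
  conv_lhs => rw [chR, chT_insert, Finset.filter_insert, if_neg (not_not.2 mem_chR)]
  rfl

theorem chN_insert : chN (insert (chR s u) s) ⊓ Cen u = chN s ⊓ Cen u :=
  le_antisymm (inf_le_inf_right _ fun _ hg => mem_chN.2 fun Q hQ =>
    mem_chN.1 hg Q (Finset.mem_insert_of_mem hQ)) fun _ hg => ⟨mem_chN.2
      (Finset.forall_mem_insert .. |>.2 ⟨inf_le_normalizer_chR hg, mem_chN.1 hg.1⟩), hg.2⟩

theorem NChain.chR_erase (hp : p.Prime) (h : NChain p s) (hu : u ∈ chN s)
    (h1 : ∃ k, orderOf u = p ^ k) : chR (s.erase (chR s u)) u = chR s u := by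
  have := Fact.mk hp
  have h2 : (s.erase (chR s u)).filter (u ∉ ·) = s.filter (u ∉ ·) := by
    rw [Finset.filter_erase, Finset.erase_eq_of_notMem]
    exact fun h2 => (Finset.mem_filter.1 h2).2 mem_chR
  have h3 : chT (s.erase (chR s u)) u ≤ chT s u :=
    sup_le_sup_left (Finset.sup_mono (Finset.erase_subset _ _)) _
  have h4 : ∀ K : Subgroup G, chT (s.erase (chR s u)) u ≤ K → chR s u ≤ K → chT s u ≤ K :=
    fun K h4 h5 => sup_le (le_sup_left.trans h4) (Finset.sup_le fun Q hQ => by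
      by_cases h6 : Q = chR s u
      · exact h6 ▸ h5
      · exact ((Finset.le_sup (f := id) (Finset.mem_erase.2 ⟨h6, hQ⟩)).trans le_sup_right).trans h4)
  have h5 : chT (s.erase (chR s u)) u = chT s u := by
    rcases eq_top_or_exists_le_coatom ((chT (s.erase (chR s u)) u).subgroupOf (chT s u)) with
      h5 | ⟨K, hK, h5⟩
    · exact le_antisymm h3 (subgroupOf_eq_top.1 h5)
    have := (h.isPGroup_chT hu h1).isNilpotent
    have hn := NormalizerCondition.normal_of_coatom K Group.normalizerCondition_of_isNilpotent hK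
    have h6 : chT (s.erase (chR s u)) u ≤ K.map (chT s u).subtype :=
      (map_subgroupOf_subtype h3).ge.trans (map_mono h5)
    have h7 := h4 _ h6 (sup_le ?_ ((closure_le _).2 ?_))
    · exact absurd (eq_top_iff.2 fun x _ => (mem_map_iff_mem (chT s u).subtype_injective).1
        (h7 x.2)) hK.1
    · rw [← h2]
      exact ((Finset.sup_mono (Finset.filter_subset _ _)).trans le_sup_right).trans h6
    · rintro _ ⟨t, ht, rfl⟩
      obtain ⟨w, hw, h7⟩ := h6 mem_chT
      exact ⟨_, hn.conj_mem w hw ⟨t, ht⟩, by simp [← h7]⟩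
  conv_lhs => rw [chR, h5, h2]
  rfl

theorem sum_chain_eq_zero (hp : p.Prime) (h1 : ∃ k, orderOf u = p ^ k) (h2 : u ≠ 1) {g : G}
    (hg : g ∈ Cen u) (hu : u ∈ zpowers g) (S : Finset (Finset (Subgroup G)))
    (hS : ∀ s, s ∈ S ↔ NChain p s ∧ g ∈ chN s) (w : Subgroup G → Subgroup G → ℂ) :
    ∑ s ∈ S, (-1) ^ s.card * w (chN s ⊓ Cen u) (chT s u) = 0 := by
  have h3 : ∀ s ∈ S, u ∈ chN s := fun s hs => zpowers_le.2 ((hS s).1 hs).2 hu
  have h4 : ∀ s ∈ S, chR (s.erase (chR s u)) u = chR s u := fun s hs =>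
    ((hS s).1 hs).1.chR_erase hp (h3 s hs) h1
  have h5 : ∀ s, chR s u ∉ s → (-1) ^ s.card * w (chN s ⊓ Cen u) (chT s u) +
      (-1) ^ (insert (chR s u) s).card * w (chN (insert (chR s u) s) ⊓ Cen u)
        (chT (insert (chR s u) s) u) = 0 := fun s hs => by
    rw [chN_insert, chT_insert, Finset.card_insert_of_notMem hs]
    ring
  refine Finset.sum_involution (fun s _ => if chR s u ∈ s then s.erase (chR s u) else
    insert (chR s u) s) (fun s hs => ?_) (fun s _ _ => ?_) (fun s hs => ?_) fun s hs => ?_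
  · split_ifs with h6
    · have h7 := h5 (s.erase (chR s u)) (by rw [h4 s hs]; exact Finset.notMem_erase _ _)
      rwa [h4 s hs, Finset.insert_erase h6, add_comm] at h7
    · exact h5 s h6
  · split_ifs with h6
    · exact fun h7 => Finset.notMem_erase _ s (h7.ge h6)
    · exact fun h7 => h6 (h7.le (Finset.mem_insert_self _ s))
  · obtain ⟨h6, h7⟩ := (hS s).1 hs
    split_ifs
    · exact (hS _).2 ⟨h6.mono (Finset.erase_subset _ _), mem_chN.2 fun Q hQ =>
        mem_chN.1 h7 Q (Finset.mem_of_mem_erase hQ)⟩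
    · exact (hS _).2 ⟨h6.insert (h3 s hs) h1 h2, (chN_insert.ge ⟨h7, hg⟩).1⟩
  · by_cases h6 : chR s u ∈ s
    · simp only [h6, if_true, h4 s hs, Finset.notMem_erase, if_false, Finset.insert_erase h6]
    · simp only [h6, if_false, chR_insert, Finset.mem_insert_self, if_true, Finset.erase_insert h6]

end Chain

end CF.Block
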