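import Cfsg.Agent.S0938
import Cfsg.Agent.S0191
import Cfsg.Agent.Transfer.Residual

/-! Principal block characters do not vanish on classes of size prime to `p`; a principal block
of linear characters gives a normal `p`-complement and abelian Sylow `p`-subgroups. -/

set_option autoImplicit false

namespace CF.PBLin
open Cfsg CF.Char Subgroup
open scoped commutatorElement

variable {G : Type*} [Group G] [Finite G] {p : ℕ} [Fact p.Prime] {M : Ideal AlgInt}

omit [Finite G] in
theorem isPBlock_pb : IsPBlock M (principalBlock M G) := ⟨⟨_, irr_one⟩, rfl⟩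

omit [Finite G] [Fact p.Prime] in
theorem one_mem_pb (hM : IsPModular p M) :
    (⟨_, irr_one⟩ : IrrCharacter G) ∈ principalBlock M G := fun g =>
  ⟨0, 1, M.zero_mem, fun h => hM.2.1.ne_top ((Ideal.eq_top_iff_one M).2 h), by simp⟩

omit [Finite G] [Fact p.Prime] in
/-- A character of the principal block does not vanish on a class of size prime to `p`. -/
theorem ne_zero_of_mem_pb (hM : IsPModular p M) {χ : IrrCharacter G} (hχ : χ ∈ principalBlock M G)
    {x : G} (hx : ¬ p ∣ (centralizer ({x} : Set G)).index) : (χ : G → ℂ) x ≠ 0 := fun h0 => by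
  have h1 := CF.BlockB.v_lt_one_of_memLocalIdeal hM.2.1 (hχ x)
  simp only [centralChar, h0, mul_zero, zero_div, sub_zero, mul_one, div_one] at h1
  exact hx ((CF.BlockB.v_natCast_lt_one_iff hM _).1 h1)

/-- The kernel of the principal block is a normal `p'`-subgroup. -/
theorem exists_ker_pb (hM : IsPModular p M) : ∃ K : Subgroup G, K.Normal ∧ ¬ p ∣ Nat.card K ∧
    ∀ g, g ∈ K ↔ ∀ χ ∈ principalBlock M G, g ∈ charKer (χ : G → ℂ) := by
  obtain ⟨K, hK, hKe, hp, -⟩ := Cfsg.Agent.S0938.result (G := G) p M hM _ isPBlock_pb _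
    (one_mem_pb hM)
  refine ⟨K, hK, hp, fun g => ?_⟩
  rw [← SetLike.mem_coe, hKe]
  exact forall₂_congr fun χ _ => (mem_charKer_iff (irr_isCharacter χ.2)).symm

theorem npc_of_commutator_le {K : Subgroup G} (hp : ¬ p ∣ Nat.card K) (h : commutator G ≤ K) :
    HasNormalPComplement p G ∧ ∀ P : Sylow p G, IsMulCommutative (P : Subgroup G) := by
  have hc : ¬ p ∣ Nat.card (commutator G) := fun hd => hp (hd.trans (card_dvd_of_le h))
  have hab : ∀ P : Sylow p G, IsMulCommutative (P : Subgroup G) := fun P => by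
    refine ⟨⟨fun a b => Subtype.ext ?_⟩⟩
    rw [coe_mul, coe_mul, ← commutatorElement_eq_one_iff_mul_comm]
    have h1 : ⁅(a : G), (b : G)⁆ ∈ commutator G :=
      commutator_mem_commutator (mem_top _) (mem_top _)
    have h2 : ⁅(a : G), (b : G)⁆ ∈ (P : Subgroup G) := by
      rw [commutatorElement_def]
      exact mul_mem (mul_mem (mul_mem a.2 b.2) (inv_mem a.2)) (inv_mem b.2)
    obtain ⟨k, hk⟩ := IsPGroup.iff_orderOf.1 P.isPGroup' ⟨_, h2⟩
    rw [← orderOf_coe] at hk
    have h3 := orderOf_dvd_natCard (⟨_, h1⟩ : commutator G)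
    rw [← orderOf_coe] at h3
    simp only at hk h3
    rcases k with _ | k
    · exact orderOf_eq_one_iff.1 (by simpa using hk)
    · exact absurd ((dvd_pow_self p k.succ_ne_zero).trans (hk ▸ h3)) hc
  refine ⟨CF.Transfer.hasNPC_of_quotient_coprime (N := commutator G)
    ((Nat.Prime.coprime_iff_not_dvd Fact.out).2 hc).symm (CF.Transfer.hasNPC_iff_mul.2 ?_), hab⟩
  intro x y hx hy
  have : Commute x y := by
    obtain ⟨a, rfl⟩ := QuotientGroup.mk'_surjective _ x
    obtain ⟨b, rfl⟩ := QuotientGroup.mk'_surjective _ y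
    rw [← commutatorElement_eq_one_iff_commute, ← map_commutatorElement]
    exact (QuotientGroup.eq_one_iff _).2 (commutator_mem_commutator (mem_top _) (mem_top _))
  exact Nat.Coprime.coprime_dvd_left this.orderOf_mul_dvd_mul_orderOf (Nat.Coprime.mul_left hx hy)

/-- A principal block consisting of linear characters. -/
theorem npc_of_pb_linear (hM : IsPModular p M)
    (h : ∀ χ ∈ principalBlock M G, (χ : G → ℂ) 1 = 1) :
    HasNormalPComplement p G ∧ ∀ P : Sylow p G, IsMulCommutative (P : Subgroup G) := by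
  obtain ⟨K, -, hp, hK⟩ := exists_ker_pb (G := G) hM
  exact npc_of_commutator_le hp fun g hg => (hK g).2 fun χ hχ =>
    commutator_le_charKer_of_one (irr_isCharacter χ.2) (h χ hχ) hg

end CF.PBLin
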